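import Cfsg.Agent.H821.K547.Tools

/-!
# S4547: tools for `XCond` (helper814)

* `XCond.of_card` : `x` of order `2 ^ n`, `2 ^ (n + 2)` does not divide the order of the group
* `XCond.congr`, `XCond.of_normal` (overgroups of odd index), `XCond.sylow`
* `XCond.not_d3` : the conjugates of the odd powers of `x` are contained in one coset of the Frattini subgroup
-/

set_option autoImplicit false

namespace Cfsg.Agent.H821.K547

universe u v

/-- The order of the normalizer of a cyclic subgroup does not get smaller under an injective homomorphism. -/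
theorem card_norm_dvd {H : Type u} {G : Type v} [Group H] [Group G] [Finite G] (f : H →* G)
    (hf : Function.Injective f) (y : H) :
    Nat.card ↥(Subgroup.normalizer (Subgroup.zpowers y : Set H)) ∣
      Nat.card ↥(Subgroup.normalizer (Subgroup.zpowers (f y) : Set G)) := by
  have h1 := Subgroup.le_normalizer_map (H := Subgroup.zpowers y) f
  rw [MonoidHom.map_zpowers] at h1
  have h2 := Subgroup.card_dvd_of_le h1
  rwa [Subgroup.card_map_of_injective hf] at h2

theorem XCond.of_card {G : Type u} [Group G] [Finite G] (x : G) (n : ℕ) (hx : orderOf x = 2 ^ n)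
    (h : ¬ 2 ^ (n + 2) ∣ Nat.card G) : XCond G :=
  ⟨x, n, hx, fun hd => h (hd.trans (Subgroup.card_subgroup_dvd_card _))⟩

theorem XCond.congr {G : Type u} {H : Type v} [Group G] [Group H] [Finite G] (e : G ≃* H) (h : XCond G) : XCond H := by
  obtain ⟨x, n, hx, h1⟩ := h
  refine ⟨e x, n, by rw [MulEquiv.orderOf_eq, hx], fun hd => h1 (hd.trans ?_)⟩
  have h2 := card_norm_dvd (e.symm : H →* G) e.symm.injective (e x)
  simpa using h2

theorem XCond.congr_iff {G : Type u} {H : Type v} [Group G] [Group H] [Finite G] (e : G ≃* H) : XCond G ↔ XCond H := by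
  have : Finite H := Finite.of_equiv G e.toEquiv
  exact ⟨fun h => h.congr e, fun h => h.congr e.symm⟩

/-- `XCond` passes to overgroups of odd index in which the subgroup is normal. -/
theorem XCond.of_normal {G : Type u} [Group G] [Finite G] (S : Subgroup G) [S.Normal] (hS : ¬ 2 ∣ S.index)
    (h : XCond S) : XCond G := by
  obtain ⟨x, n, hx, h1⟩ := h
  refine ⟨x, n, by rw [Subgroup.orderOf_coe, hx], fun hd => h1 ?_⟩
  set N := Subgroup.normalizer (Subgroup.zpowers (x : G) : Set G) with hN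
  have h2 : Subgroup.normalizer (Subgroup.zpowers x : Set S) = N.subgroupOf S := by
    ext s
    rw [Subgroup.mem_subgroupOf, hN, Subgroup.mem_normalizer_iff, Subgroup.mem_normalizer_iff]
    constructor
    · intro h3 z
      constructor
      · rintro ⟨i, rfl⟩
        have h4 := (h3 (x ^ i)).1 ⟨i, rfl⟩
        obtain ⟨j, hj⟩ := h4
        refine ⟨j, ?_⟩
        have := congrArg Subtype.val hj
        simpa using this
      · rintro ⟨j, hj⟩
        have h4 := (h3 (s⁻¹ * x ^ j * s)).2 ⟨j, by simp only []; group⟩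
        obtain ⟨i, hi⟩ := h4
        refine ⟨i, ?_⟩
        have := congrArg Subtype.val hi
        simp only [] at this hj ⊢
        have h5 : ((x ^ i : S) : G) = (s : G)⁻¹ * (x : G) ^ j * s := by
          rw [this]; simp
        rw [← SubgroupClass.coe_zpow, h5, hj]
        group
    · intro h3 z
      have h4 := h3 (z : G)
      rw [← Subgroup.coe_mul, ← Subgroup.coe_inv, ← Subgroup.coe_mul] at h4
      have h5 : ∀ w : S, (w : G) ∈ Subgroup.zpowers (x : G) ↔ w ∈ Subgroup.zpowers x := by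
        intro w
        constructor
        · rintro ⟨i, hi⟩
          exact ⟨i, Subtype.ext (by simpa using hi)⟩
        · rintro ⟨i, rfl⟩
          exact ⟨i, by simp⟩
      rw [h5, h5] at h4
      exact h4
  rw [h2]
  have h3 : Nat.card (N.subgroupOf S) * S.relIndex N = Nat.card N := by
    have h4 : Nat.card (S.subgroupOf N) * S.relIndex N = Nat.card N := (S.subgroupOf N).card_mul_index
    rw [← h4]
    congr 1
    have e1 : Nat.card (N.subgroupOf S) = Nat.card (N ⊓ S : Subgroup G) := by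
      rw [← Subgroup.inf_subgroupOf_right, Nat.card_congr (Subgroup.subgroupOfEquivOfLe inf_le_right).toEquiv]
    have e2 : Nat.card (S.subgroupOf N) = Nat.card (S ⊓ N : Subgroup G) := by
      rw [← Subgroup.inf_subgroupOf_right, Nat.card_congr (Subgroup.subgroupOfEquivOfLe inf_le_right).toEquiv]
    rw [e1, e2, inf_comm]
  have h4 : ¬ 2 ∣ S.relIndex N := fun h5 => hS (h5.trans (Subgroup.relIndex_dvd_index_of_normal S N))
  have h5 : (2 ^ (n + 2)).Coprime (S.relIndex N) :=
    Nat.Coprime.pow_left _ ((Nat.Prime.coprime_iff_not_dvd Nat.prime_two).2 h4)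
  rw [← h3] at hd
  exact h5.dvd_of_dvd_mul_right hd

/-- `XCond` passes to the Sylow 2-subgroups. -/
theorem XCond.sylow {G : Type u} [Group G] [Finite G] (h : XCond G) (P : Sylow 2 G) : XCond P := by
  have hf : Fact (Nat.Prime 2) := ⟨Nat.prime_two⟩
  obtain ⟨x, n, hx, h1⟩ := h
  have hp : IsPGroup 2 (Subgroup.zpowers x) := IsPGroup.of_card (n := n) (by rw [Nat.card_zpowers, hx])
  obtain ⟨Q, hQ⟩ := hp.exists_le_sylow
  obtain ⟨g, hg⟩ := MulAction.exists_smul_eq G Q P
  have hxP : g * x * g⁻¹ ∈ (P : Subgroup G) := by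
    rw [← hg, Sylow.coe_subgroup_smul]
    exact ⟨x, hQ (Subgroup.mem_zpowers x), rfl⟩
  refine ⟨⟨g * x * g⁻¹, hxP⟩, n, ?_, fun hd => h1 (hd.trans ?_)⟩
  · rw [← Subgroup.orderOf_coe]
    show orderOf (g * x * g⁻¹) = _
    rw [← hx]
    exact (MulAut.conj g).orderOf_eq x
  · refine (card_norm_dvd (P : Subgroup G).subtype (Subgroup.subtype_injective _) _).trans ?_
    have h2 := card_norm_dvd ((MulAut.conj g⁻¹ : MulAut G) : G →* G) (MulAut.conj g⁻¹).injective (g * x * g⁻¹)
    have h3 : ((MulAut.conj g⁻¹ : MulAut G) : G →* G) (g * x * g⁻¹) = x := by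
      show g⁻¹ * (g * x * g⁻¹) * g⁻¹⁻¹ = x
      group
    rw [h3] at h2
    exact h2

/-- A 2-group with `XCond` is generated by two elements. -/
theorem XCond.not_rk {P : Type u} [Group P] [Finite P] (hP : IsPGroup 2 P) (h : XCond P) : ¬ Rk 3 P := by
  have hf : Fact (Nat.Prime 2) := ⟨Nat.prime_two⟩
  classical
  rintro ⟨f, hs⟩
  obtain ⟨x, n, hx, h1⟩ := h
  apply h1
  -- `|P| = 8 |ker f|`
  have hcard : Nat.card P = 8 * Nat.card f.ker := by
    have h2 := f.ker.card_mul_index
    have h3 : f.ker.index = 8 := by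
      rw [Subgroup.index_ker, MonoidHom.range_eq_top.2 hs, Subgroup.card_top]
      simp
    rw [← h2, h3, mul_comm]
  set N := Subgroup.normalizer (Subgroup.zpowers x : Set P) with hN
  have hNp : ∃ m, Nat.card N = 2 ^ m := IsPGroup.iff_card.1 (hP.to_subgroup N)
  obtain ⟨m, hm⟩ := hNp
  rw [hm]
  apply pow_dvd_pow
  have hpos : 0 < Nat.card f.ker := Nat.card_pos
  rcases Nat.eq_zero_or_pos n with rfl | hn
  · rw [pow_zero, orderOf_eq_one_iff] at hx
    subst hx
    have h2 : N = ⊤ := by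
      rw [eq_top_iff]
      intro g _
      rw [hN, Subgroup.mem_normalizer_iff]
      intro z
      rw [Subgroup.zpowers_one_eq_bot, Subgroup.mem_bot, Subgroup.mem_bot, mul_inv_eq_one, mul_eq_left]
    rw [h2, Subgroup.card_top, hcard] at hm
    by_contra hcon
    have h3 : 2 ^ m ≤ 2 ^ 1 := Nat.pow_le_pow_right (by norm_num) (by omega)
    omega
  obtain ⟨r, rfl⟩ : ∃ r, n = r + 1 := ⟨n - 1, by omega⟩
  -- the odd powers
  have hsq : ∀ v : Multiplicative (Fin 3 → ZMod 2), v * v = 1 := by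
    intro v
    have h2 : ∀ a : ZMod 2, a + a = 0 := fun a => CharTwo.add_self_eq_zero a
    exact congrArg Multiplicative.ofAdd (funext fun i => h2 _)
  have hfx : ∀ (g : P) (i : ℕ), x⁻¹ * (g * x ^ (2 * i + 1) * g⁻¹) ∈ f.ker := by
    intro g i
    rw [MonoidHom.mem_ker, map_mul, map_mul, map_mul, map_inv, map_inv, pow_succ, map_mul, map_pow, pow_mul, sq, hsq,
      one_pow, one_mul, mul_comm (f g), mul_assoc (f x), mul_inv_cancel, mul_one, inv_mul_cancel]
  -- the odd powers generate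
  have hgen : ∀ i : ℕ, Subgroup.zpowers (x ^ (2 * i + 1)) = Subgroup.zpowers x := by
    intro i
    apply Subgroup.eq_of_le_of_card_ge
    · rw [Subgroup.zpowers_le]
      exact pow_mem (Subgroup.mem_zpowers x) _
    · rw [Nat.card_zpowers, Nat.card_zpowers, Nat.Coprime.orderOf_pow]
      rw [hx]
      apply Nat.Coprime.pow_left
      rw [Nat.coprime_two_left]
      exact odd_two_mul_add_one i
  -- choice of conjugating elements
  have hch : ∀ y : P, ∃ c : P, (∃ (g : P) (i : ℕ), y = g * x ^ (2 * i + 1) * g⁻¹) → ∃ i : ℕ, y = c * x ^ (2 * i + 1) * c⁻¹ := by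
    intro y
    by_cases h2 : ∃ (g : P) (i : ℕ), y = g * x ^ (2 * i + 1) * g⁻¹
    · obtain ⟨g, i, h3⟩ := h2
      exact ⟨g, fun _ => ⟨i, h3⟩⟩
    · exact ⟨1, fun h3 => absurd h3 h2⟩
  choose c hc using hch
  have hmem : ∀ (g : P) (i : ℕ), (c (g * x ^ (2 * i + 1) * g⁻¹))⁻¹ * g ∈ N := by
    intro g i
    obtain ⟨j, hj⟩ := hc (g * x ^ (2 * i + 1) * g⁻¹) ⟨g, i, rfl⟩
    set c' := c (g * x ^ (2 * i + 1) * g⁻¹) with hc'
    have h2 : (c'⁻¹ * g) * x ^ (2 * i + 1) * (c'⁻¹ * g)⁻¹ = x ^ (2 * j + 1) := by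
      have : (c'⁻¹ * g) * x ^ (2 * i + 1) * (c'⁻¹ * g)⁻¹ = c'⁻¹ * (g * x ^ (2 * i + 1) * g⁻¹) * c' := by group
      rw [this, hj]
      group
    have h3 : (Subgroup.zpowers x).map (MulAut.conj (c'⁻¹ * g)).toMonoidHom = Subgroup.zpowers x := by
      conv_lhs => rw [← hgen i]
      rw [MonoidHom.map_zpowers]
      have : (MulAut.conj (c'⁻¹ * g)).toMonoidHom (x ^ (2 * i + 1)) = x ^ (2 * j + 1) := h2
      rw [this, hgen]
    rw [hN, Subgroup.mem_normalizer_iff]
    intro z
    constructor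
    · intro hz
      rw [← h3]
      exact ⟨z, hz, rfl⟩
    · intro hz
      rw [← h3] at hz
      obtain ⟨w, hw, e⟩ := hz
      have : w = z := (MulAut.conj (c'⁻¹ * g)).injective e
      rwa [← this]
  let Θ : P × Fin (2 ^ r) → f.ker × N := fun q =>
    (⟨x⁻¹ * (q.1 * x ^ (2 * (q.2 : ℕ) + 1) * q.1⁻¹), hfx _ _⟩, ⟨_, hmem q.1 q.2⟩)
  have hinj : Function.Injective Θ := by
    rintro ⟨g, i⟩ ⟨g', i'⟩ h2
    have h3 : x⁻¹ * (g * x ^ (2 * (i : ℕ) + 1) * g⁻¹) = x⁻¹ * (g' * x ^ (2 * (i' : ℕ) + 1) * g'⁻¹) :=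
      congrArg (fun q => (q.1 : P)) h2
    have h4 : (c (g * x ^ (2 * (i : ℕ) + 1) * g⁻¹))⁻¹ * g = (c (g' * x ^ (2 * (i' : ℕ) + 1) * g'⁻¹))⁻¹ * g' :=
      congrArg (fun q => (q.2 : P)) h2
    have h5 := mul_left_cancel h3
    rw [h5] at h4
    have h6 := mul_left_cancel h4
    subst h6
    have h7 := mul_left_cancel (mul_right_cancel h5)
    have h8 := pow_inj_mod.1 h7
    rw [hx, pow_succ] at h8
    have hi := i.2
    have hi' := i'.2
    rw [Nat.mod_eq_of_lt (by omega), Nat.mod_eq_of_lt (by omega)] at h8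
    have h9 : i = i' := Fin.ext (by omega)
    rw [h9]
  have hle := Nat.card_le_card_of_injective Θ hinj
  rw [Nat.card_prod, Nat.card_prod, Nat.card_eq_fintype_card (α := Fin (2 ^ r)), Fintype.card_fin, hcard, hm] at hle
  have h2 : 2 ^ (r + 3) ≤ 2 ^ m := by
    have h3 : Nat.card f.ker * 2 ^ (r + 3) ≤ Nat.card f.ker * 2 ^ m := by
      calc Nat.card f.ker * 2 ^ (r + 3) = 8 * Nat.card f.ker * 2 ^ r := by rw [pow_add]; ring
        _ ≤ _ := hle
    exact Nat.le_of_mul_le_mul_left h3 hpos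
  exact (Nat.pow_le_pow_iff_right (by norm_num)).1 h2

/-- `XCond` groups do not have `D3`. -/
theorem XCond.not_d3 {G : Type u} [Group G] [Finite G] (h : XCond G) : ¬ D3 G := by
  intro h3
  have P : Sylow 2 G := default
  exact (h.sylow P).not_rk P.isPGroup' (h3 P)

end Cfsg.Agent.H821.K547
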